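import Cfsg.Agent.H32.M24Quad.Iso

/-! Symmetries of the 126 points fixing one of them. -/

set_option autoImplicit false

namespace Cfsg.Agent.H32.M24Quad

open scoped Classical

/-- The possible images of a point under a symmetry with given images of earlier points. -/
def cand (img : ℕ → ℕ) (pre : List ℕ) (b : ℕ) : List ℕ :=
  (List.range 45).filter (fun c =>
    pre.all (fun j => (c == img j) == (b == j) && gAdj (img j) c == gAdj j b))

/-- Every later point is determined. -/
def forced (img : ℕ → ℕ) : List ℕ → List ℕ → Bool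
  | _, [] => true
  | pre, b :: rest => cand img pre b == [img b] && forced img (pre ++ [b]) rest

/-- A word applied to a point. -/
def wordAct (w : List ℕ) (x : ℕ) : ℕ := w.foldl (fun y a => gOp a y) x

/-- The reductions at the first levels. -/
def levelsOK : List (ℕ × List (ℕ × List ℕ)) → List ℕ → List ℕ → Bool
  | [], pre, rest => pre.length + rest.length == 45 &&
      forced id pre (rest.take 10) &&
      (cand id (pre ++ rest.take 10) (rest.getD 10 0)).all
        (fun c => c == rest.getD 10 0 || c == autTau.getD (rest.getD 10 0) 0) &&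
      forced id (pre ++ rest.take 11) (rest.drop 11) &&
      forced (fun v => autTau.getD v 0) (pre ++ rest.take 11) (rest.drop 11) &&
      (pre ++ rest.take 10).all (fun v => autTau.getD v 0 == v)
  | (_, ws) :: more, pre, b :: rest =>
      (cand id pre b).all (fun c => ws.any (fun e => e.1 == c && wordAct e.2 c == b &&
        e.2.all (fun a => decide (a < 45)) && pre.all (fun j => wordAct e.2 j == j))) &&
      levelsOK more (pre ++ [b]) rest
  | _ :: _, _, [] => false

set_option maxRecDepth 100000 in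
theorem levels_ok : levelsOK autWords [] autBase = true := by decide +kernel

set_option maxRecDepth 100000 in
theorem autBase_all : (∀ v ∈ autBase, v < 45) ∧ (∀ v : Fin 45, (v : ℕ) ∈ autBase) ∧
    (∀ v : Fin 45, autTau.getD v 0 < 45 ∧ autTau.getD (autTau.getD v 0) 0 = v) := by
  decide +kernel

/-- The coordinates of the points reduced to the range. -/
def fin45 (v : ℕ) : Fin 45 := ⟨v % 45, Nat.mod_lt _ (by omega)⟩

theorem fin45_of_lt {v : ℕ} (h : v < 45) : (fin45 v : ℕ) = v := Nat.mod_eq_of_lt h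

theorem fin45_val (v : Fin 45) : fin45 v = v := Fin.ext (fin45_of_lt v.isLt)

namespace Sys

variable {Ω : Type*} (S : Sys Ω)

/-- A symmetry carries reflections to reflections. -/
theorem equivariant (σ : Equiv.Perm Ω) (hσ : ∀ x y, S.adj (σ x) (σ y) ↔ S.adj x y) (p x : Ω) :
    σ (S.r p x) = S.r (σ p) (σ x) := by
  by_cases h : x = p ∨ S.adj p x
  · rw [(S.r_fix p x).2 h, eq_comm, S.r_fix]
    exact h.imp (fun e => by rw [e]) (hσ p x).2
  rw [not_or] at h
  have hx : S.Far p x := h
  have himg : ∀ {z}, S.Far p z → S.Far (σ p) (σ z) :=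
    fun hz => ⟨fun e => hz.1 (σ.injective e), fun e => hz.2 ((hσ _ _).1 e)⟩
  refine (S.same_two (himg hx) (himg (S.far_r hx)) fun a ha => ?_).resolve_left
    (fun e => S.r_far_ne hx (σ.injective e))
  obtain ⟨b, rfl⟩ := σ.surjective a
  rw [hσ, hσ, S.adj_r_far ((hσ p b).1 ha)]

/-- The group generated by the reflections in a point and its neighbours. -/
def localGroup (q : Ω) : Subgroup (Equiv.Perm Ω) :=
  Subgroup.closure (S.r '' {a | a = q ∨ S.adj q a})

theorem r_mem_localGroup {q a : Ω} (h : a = q ∨ S.adj q a) : S.r a ∈ S.localGroup q :=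
  Subgroup.subset_closure ⟨a, h, rfl⟩

theorem conj_mem_localGroup {q : Ω} {σ w : Equiv.Perm Ω}
    (hσ : ∀ x y, S.adj (σ x) (σ y) ↔ S.adj x y) (hq : σ q = q) (hw : w ∈ S.localGroup q) :
    σ * w * σ⁻¹ ∈ S.localGroup q := by
  induction hw using Subgroup.closure_induction with
  | mem w hw =>
    obtain ⟨a, ha, rfl⟩ := hw
    have : σ * S.r a * σ⁻¹ = S.r (σ a) := by
      ext x
      simp only [Equiv.Perm.mul_apply]
      rw [S.equivariant σ hσ]
      simp
    rw [this]
    refine S.r_mem_localGroup ?_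
    rcases ha with rfl | ha
    · exact Or.inl hq
    · exact Or.inr (hq ▸ (hσ q a).2 ha)
  | one => simp
  | mul x y _ _ hx hy =>
    have : σ * (x * y) * σ⁻¹ = (σ * x * σ⁻¹) * (σ * y * σ⁻¹) := by group
    rw [this]; exact mul_mem hx hy
  | inv x _ hx =>
    have : σ * x⁻¹ * σ⁻¹ = (σ * x * σ⁻¹)⁻¹ := by group
    rw [this]; exact inv_mem hx

end Sys

namespace Frame45

variable {Ω : Type*} {S : Sys Ω} {q : Ω} (F : Frame45 S q)

theorem fix_near (σ : Equiv.Perm Ω) (hσ : ∀ x y, S.adj (σ x) (σ y) ↔ S.adj x y)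
    (hq : σ q = q) (hf : ∀ a, σ (F.f a) = F.f a) : σ = 1 ∨ σ = S.r q := by
  obtain ⟨X, hX, hE⟩ := F.exists_labels
  have key : ∀ σ : Equiv.Perm Ω, (∀ x y, S.adj (σ x) (σ y) ↔ S.adj x y) → σ q = q →
      (∀ a, σ (F.f a) = F.f a) → σ (X 0) = X 0 → σ = 1 := by
    intro σ hσ hq hf h0
    have htr : ∀ {x t}, F.HasTr x t → F.HasTr (σ x) t := by
      intro x t h
      refine ⟨⟨fun e => h.1.1 (σ.injective (e.trans hq.symm)), fun e => h.1.2 ?_⟩, fun a => ?_⟩
      · rwa [← hq, hσ] at e
      · rw [← hf a, hσ, h.2]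
    obtain ⟨htree, hall⟩ := edgeTree_ok
    rw [List.all_eq_true] at hall
    have hfix : ∀ t < 40, σ (X t) = X t := by
      intro t ht
      refine (attach_all (fun t => t < 40 → σ (X t) = X t) _ [0] htree (by simp) (by simp)
        ?_ (by simp [h0]) t ht) ht
      intro e he
      simp only [List.mem_map] at he
      obtain ⟨e, he, rfl⟩ := he
      intro hi hk
      have hw := hall e he
      simp only [Bool.and_eq_true, witOK, decide_eq_true_eq] at hw
      have hi' : e.getD 0 0 < 40 := hw.1.2.1.1.1.1.1.1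
      have hfi := hi hi'
      simp only at hk
      have hadj := hE e he
      generalize e.getD 0 0 = i at *
      generalize e.getD 1 0 = k at *
      have himg := (hσ _ _).2 hadj
      rw [hfi] at himg
      by_cases hb : e.getD 2 0 = 0
      · rw [if_pos hb] at hadj himg
        rcases F.two hk (hX k hk) (htr (hX k hk)) with h | h
        · exact h
        · rw [h] at himg
          exact absurd himg (S.not_both (hX i hi').1 (hX k hk).1 hadj)
      · rw [if_neg hb] at hadj himg
        rcases F.two hk (F.hasTr_r (hX k hk)) (htr (F.hasTr_r (hX k hk))) with h | h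
        · rcases F.two hk (hX k hk) (htr (hX k hk)) with h' | h'
          · exact h'
          · exact absurd (σ.injective (h'.trans h.symm)).symm (S.r_far_ne (hX k hk).1)
        · rw [h] at himg
          exact absurd himg (S.not_both (hX i hi').1 (S.far_r (hX k hk).1) hadj)
    ext x
    rw [Equiv.Perm.one_apply]
    by_cases hxq : x = q
    · rw [hxq, hq]
    by_cases hxa : S.adj q x
    · obtain ⟨a, rfl⟩ := (F.nbr x).1 hxa
      exact hf a
    · obtain ⟨t, ht, hxt⟩ := F.exists_tr ⟨hxq, hxa⟩
      rcases F.two ht (hX t ht) hxt with rfl | rfl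
      · exact hfix t ht
      · rcases F.two ht (hX t ht) (htr (F.hasTr_r (hX t ht))) with h | h
        · exact absurd (σ.injective (h.trans (hfix t ht).symm)) (S.r_far_ne (hX t ht).1)
        · exact h
  have h0 := hX 0 (by omega)
  have h0' : F.HasTr (σ (X 0)) 0 := by
    refine ⟨⟨fun e => h0.1.1 (σ.injective (e.trans hq.symm)), fun e => h0.1.2 ?_⟩, fun a => ?_⟩
    · rwa [← hq, hσ] at e
    · rw [← hf a, hσ, h0.2]
  rcases F.two (by omega) h0 h0' with h | h
  · exact Or.inl (key σ hσ hq hf h)
  · right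
    have := key (S.r q * σ) (fun x y => by simp only [Equiv.Perm.mul_apply, S.adj_r_iff, hσ])
      (by simp [hq, S.r_self]) (fun a => by simp [hf, S.r_of_adj (F.adj_f a)])
      (by simp [h, S.r_invol])
    ext x
    have h' := congrArg (fun π => S.r q (π x)) this
    simpa [S.r_invol] using h'

/-- A word as a permutation. -/
theorem exists_word : ∀ w : List ℕ, (∀ a ∈ w, a < 45) → ∃ W ∈ S.localGroup q, W q = q ∧
    (∀ x y, S.adj (W x) (W y) ↔ S.adj x y) ∧
    ∀ v : Fin 45, W (F.f v) = F.f (fin45 (wordAct w v)) := by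
  intro w
  induction w with
  | nil => exact fun _ => ⟨1, one_mem _, rfl, by simp, fun v => by simp [wordAct, fin45_val]⟩
  | cons a w ih =>
    intro hw
    obtain ⟨W, hW, hWq, hWa, hWf⟩ := ih (fun b hb => hw b (List.mem_cons_of_mem _ hb))
    have ha := hw a (by simp)
    refine ⟨W * S.r (F.f ⟨a, ha⟩), mul_mem hW (S.r_mem_localGroup (Or.inr (F.adj_f _))), ?_, ?_, ?_⟩
    · simp [S.r_of_adj (S.symm (F.adj_f _)), hWq]
    · intro x y; simp only [Equiv.Perm.mul_apply, hWa, S.adj_r_iff]
    · intro v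
      rw [Equiv.Perm.mul_apply, F.r_f, hWf]
      rfl

theorem mem_cand {σ : Equiv.Perm Ω} (hσ : ∀ x y, S.adj (σ x) (σ y) ↔ S.adj x y)
    {img : ℕ → ℕ} {pre : List ℕ} (hpre : ∀ j ∈ pre, j < 45 ∧ img j < 45 ∧
      σ (F.f (fin45 j)) = F.f (fin45 (img j))) {b : ℕ} (hb : b < 45) {c : Fin 45}
    (hc : σ (F.f (fin45 b)) = F.f c) : (c : ℕ) ∈ cand img pre b := by
  rw [cand, List.mem_filter, List.mem_range, List.all_eq_true]
  refine ⟨c.isLt, fun j hj => ?_⟩
  obtain ⟨hj, hij, hjσ⟩ := hpre j hj
  rw [Bool.and_eq_true, beq_iff_eq, beq_iff_eq]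
  constructor
  · rw [Bool.eq_iff_iff, beq_iff_eq, beq_iff_eq]
    constructor
    · intro h
      have : c = fin45 (img j) := Fin.ext (h.trans (fin45_of_lt hij).symm)
      rw [this, ← hjσ] at hc
      have h2 := congrArg Fin.val (F.inj (σ.injective hc))
      rwa [fin45_of_lt hb, fin45_of_lt hj] at h2
    · rintro rfl
      rw [hjσ] at hc
      rw [← F.inj hc, fin45_of_lt hij]
  · rw [Bool.eq_iff_iff]
    have h := hσ (F.f (fin45 j)) (F.f (fin45 b))
    rw [hjσ, hc, F.adj_iff, F.adj_iff, fin45_of_lt hij, fin45_of_lt hb, fin45_of_lt hj] at h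
    exact h

theorem forced_spec {σ : Equiv.Perm Ω} (hσ : ∀ x y, S.adj (σ x) (σ y) ↔ S.adj x y)
    (hq : σ q = q) {img : ℕ → ℕ} : ∀ (rest pre : List ℕ), forced img pre rest = true →
      (∀ j ∈ rest, j < 45 ∧ img j < 45) →
      (∀ j ∈ pre, j < 45 ∧ img j < 45 ∧ σ (F.f (fin45 j)) = F.f (fin45 (img j))) →
      ∀ j ∈ pre ++ rest, σ (F.f (fin45 j)) = F.f (fin45 (img j)) := by
  intro rest
  induction rest with
  | nil => intro pre _ _ hpre j hj; rw [List.append_nil] at hj; exact (hpre j hj).2.2
  | cons b rest ih =>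
    intro pre h hlt hpre j hj
    simp only [forced, Bool.and_eq_true, beq_iff_eq] at h
    obtain ⟨hb, hib⟩ := hlt b (by simp)
    obtain ⟨c, hc⟩ := (F.nbr (σ (F.f (fin45 b)))).1 (by
      have h' := (hσ q (F.f (fin45 b))).2 (F.adj_f _); rwa [hq] at h')
    have hm := F.mem_cand hσ hpre hb hc.symm
    rw [h.1, List.mem_singleton] at hm
    have hbσ : σ (F.f (fin45 b)) = F.f (fin45 (img b)) := by
      rw [← hc, ← fin45_val c, hm]
    refine ih (pre ++ [b]) h.2 (fun j hj => hlt j (List.mem_cons_of_mem _ hj)) ?_ j (by simpa using hj)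
    intro j hj
    rcases List.mem_append.1 hj with hj | hj
    · exact hpre j hj
    · rw [List.mem_singleton] at hj
      subst hj
      exact ⟨hb, hib, hbσ⟩

theorem reduce_levels : ∀ (ls : List (ℕ × List (ℕ × List ℕ))) (pre rest : List ℕ),
    levelsOK ls pre rest = true → (∀ v : Fin 45, (v : ℕ) ∈ pre ++ rest) →
    (∀ v ∈ pre ++ rest, v < 45) → ∀ σ : Equiv.Perm Ω,
    (∀ x y, S.adj (σ x) (σ y) ↔ S.adj x y) → σ q = q →
    (∀ j ∈ pre, σ (F.f (fin45 j)) = F.f (fin45 j)) →
    σ * σ ∈ S.localGroup q := by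
  have hU : ∀ π : Equiv.Perm Ω, (∀ x y, S.adj (π x) (π y) ↔ S.adj x y) → π q = q →
      (∀ a, π (F.f a) = F.f a) → π ∈ S.localGroup q := fun π h1 h2 h3 => by
    rcases F.fix_near π h1 h2 h3 with rfl | rfl
    exacts [one_mem _, S.r_mem_localGroup (Or.inl rfl)]
  intro ls
  induction ls with
  | nil =>
    intro pre rest h hall hlt σ hσ hq hpre
    simp only [levelsOK, Bool.and_eq_true, beq_iff_eq, List.all_eq_true, Bool.or_eq_true] at h
    obtain ⟨⟨⟨⟨⟨hlen, hf10⟩, hc⟩, hid⟩, htau⟩, htfix⟩ := h
    have hplt : ∀ j ∈ pre, j < 45 := fun j hj => hlt j (by simp [hj])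
    have hrlt : ∀ j ∈ rest, j < 45 := fun j hj => hlt j (by simp [hj])
    have hstep := F.forced_spec hσ hq (rest.take 10) pre hf10
      (fun j hj => ⟨hrlt j (List.mem_of_mem_take hj), hrlt j (List.mem_of_mem_take hj)⟩)
      (fun j hj => ⟨hplt j hj, hplt j hj, hpre j hj⟩)
    have htlt : ∀ j ∈ pre ++ rest.take 10, j < 45 := fun j hj => by
      rcases List.mem_append.1 hj with hj | hj
      exacts [hplt j hj, hrlt j (List.mem_of_mem_take hj)]
    have hsq : ∀ img : ℕ → ℕ, (∀ j ∈ pre ++ rest.take 11, σ (F.f (fin45 j)) = F.f (fin45 (img j))) →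
        forced img (pre ++ rest.take 11) (rest.drop 11) = true → (∀ j < 45, img j < 45) →
        ∀ a : Fin 45, σ (F.f a) = F.f (fin45 (img a)) := by
      intro img h1 h2 h3 a
      have hmem : (a : ℕ) ∈ (pre ++ rest.take 11) ++ rest.drop 11 := by
        rw [List.append_assoc, List.take_append_drop]; exact hall a
      have h11 : ∀ j ∈ pre ++ rest.take 11, j < 45 := fun j hj => by
        rcases List.mem_append.1 hj with hj | hj
        exacts [hplt j hj, hrlt j (List.mem_of_mem_take hj)]
      have := F.forced_spec hσ hq _ _ h2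
        (fun j hj => ⟨hrlt j (List.mem_of_mem_drop hj), h3 j (hrlt j (List.mem_of_mem_drop hj))⟩)
        (fun j hj => ⟨h11 j hj, h3 j (h11 j hj), h1 j hj⟩) a hmem
      rwa [fin45_val] at this
    rcases Nat.lt_or_ge 10 rest.length with hlen10 | hlen10
    · have ht : rest.take 11 = rest.take 10 ++ [rest.getD 10 0] := by
        rw [List.take_succ_eq_append_getElem hlen10, List.getD_eq_getElem _ _ hlen10]
      generalize rest.getD 10 0 = b at *
      have hb : b < 45 := hrlt b (List.mem_of_mem_take (ht ▸ by simp : b ∈ rest.take 11))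
      obtain ⟨c, hcσ⟩ := (F.nbr (σ (F.f (fin45 b)))).1 (by
      have h' := (hσ q (F.f (fin45 b))).2 (F.adj_f _); rwa [hq] at h')
      have hcm := hc _ (F.mem_cand hσ (fun j hj => ⟨htlt j hj, htlt j hj, hstep j hj⟩) hb hcσ.symm)
      rcases hcm with hcb | hcb
      · have hfx := hsq id (fun j hj => by
          rw [ht, ← List.append_assoc, List.mem_append, List.mem_singleton] at hj
          rcases hj with hj | rfl
          · exact hstep j hj
          · rw [← hcσ, ← fin45_val c, hcb]; rfl) hid (fun j hj => hj)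
        have h1 : σ ∈ S.localGroup q := hU σ hσ hq (fun a => by simpa [fin45_val] using hfx a)
        exact mul_mem h1 h1
      · obtain ⟨-, -, htinv⟩ := autBase_all
        have hfx := hsq (fun v => autTau.getD v 0) (fun j hj => by
          rw [ht, ← List.append_assoc, List.mem_append, List.mem_singleton] at hj
          rcases hj with hj | rfl
          · rw [hstep j hj, htfix j hj]; rfl
          · rw [← hcσ, ← fin45_val c, hcb]) htau (fun j hj => (htinv ⟨j, hj⟩).1)
        refine hU _ (fun x y => by simp [hσ]) (by simp [hq]) (fun a => ?_)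
        rw [Equiv.Perm.mul_apply, hfx, hfx, fin45_of_lt (htinv a).1, (htinv a).2, fin45_val]
    · have hfx : ∀ a : Fin 45, σ (F.f a) = F.f a := fun a => by
        have hmem : (a : ℕ) ∈ pre ++ rest.take 10 := by
          rw [List.take_of_length_le hlen10]; exact hall a
        have := hstep a hmem
        rwa [id, fin45_val] at this
      have h1 : σ ∈ S.localGroup q := hU σ hσ hq hfx
      exact mul_mem h1 h1
  | cons l more ih =>
    obtain ⟨k, ws⟩ := l
    intro pre rest h hall hlt σ hσ hq hpre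
    cases rest with
    | nil => simp [levelsOK] at h
    | cons b rest =>
      simp only [levelsOK, Bool.and_eq_true, List.all_eq_true, List.any_eq_true, beq_iff_eq,
        decide_eq_true_eq] at h
      have hb : b < 45 := hlt b (by simp)
      obtain ⟨c, hc⟩ := (F.nbr (σ (F.f (fin45 b)))).1 (by
      have h' := (hσ q (F.f (fin45 b))).2 (F.adj_f _); rwa [hq] at h')
      obtain ⟨e, -, ⟨⟨hec, hact⟩, hwlt⟩, hwfix⟩ := h.1 _ (F.mem_cand hσ
        (fun j hj => ⟨hlt j (by simp [hj]), hlt j (by simp [hj]), hpre j hj⟩) hb hc.symm)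
      obtain ⟨W, hW, hWq, hWa, hWf⟩ := F.exists_word e.2 hwlt
      have hσ' : ∀ x y, S.adj ((W * σ) x) ((W * σ) y) ↔ S.adj x y := fun x y => by
        simp only [Equiv.Perm.mul_apply, hWa, hσ]
      have hq' : (W * σ) q = q := by simp [hq, hWq]
      have := ih (pre ++ [b]) rest h.2 (by simpa using hall) (by simpa using hlt) (W * σ) hσ' hq'
        (fun j hj => by
          rw [List.mem_append, List.mem_singleton] at hj
          rcases hj with hj | rfl
          · rw [Equiv.Perm.mul_apply, hpre j hj, hWf, fin45_of_lt (hlt j (by simp [hj])), hwfix j hj]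
          · rw [Equiv.Perm.mul_apply, ← hc, hWf, hact])
      have hconj := S.conj_mem_localGroup hσ' hq' (inv_mem hW)
      have heq : σ * σ = W⁻¹ * ((W * σ) * W⁻¹ * (W * σ)⁻¹) * ((W * σ) * (W * σ)) := by group
      rw [heq]
      exact mul_mem (mul_mem (inv_mem hW) hconj) this

include F in
/-- The square of a symmetry fixing a point is local. -/
theorem sq_mem (σ : Equiv.Perm Ω) (hσ : ∀ x y, S.adj (σ x) (σ y) ↔ S.adj x y) (hq : σ q = q) :
    σ * σ ∈ S.localGroup q :=
  F.reduce_levels autWords [] autBase levels_ok (by simpa using autBase_all.2.1)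
    (by simpa using autBase_all.1) σ hσ hq (by simp)

end Frame45

end Cfsg.Agent.H32.M24Quad
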