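import Cfsg.Agent.H32.M24Quad.Aut

/-! An upper bound for the number of symmetries of the 126 points. -/

set_option autoImplicit false

namespace Cfsg.Agent.H32.M24Quad

open scoped Classical

/-- The sizes of the successive sets of candidates are as small as the lists. -/
def candOK : List (ℕ × List (ℕ × List ℕ)) → List ℕ → List ℕ → Bool
  | [], pre, rest => forced id pre (rest.take 10) &&
      decide ((cand id (pre ++ rest.take 10) (rest.getD 10 0)).length ≤ 2) &&
      forced id (pre ++ rest.take 11) (rest.drop 11) && decide (10 < rest.length)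
  | (_, ws) :: more, pre, b :: rest =>
      decide ((cand id pre b).length ≤ ws.length) && candOK more (pre ++ [b]) rest
  | _ :: _, _, [] => false

set_option maxRecDepth 100000 in
theorem cand_ok : candOK autWords [] autBase = true ∧
    (autWords.map fun l => l.2.length).prod = 25920 := by decide +kernel

namespace Sys

variable {Ω : Type*} (S : Sys Ω)

/-- The symmetries. -/
def autGroup : Subgroup (Equiv.Perm Ω) where
  carrier := {σ | ∀ x y, S.adj (σ x) (σ y) ↔ S.adj x y}
  mul_mem' := fun {σ τ} hσ hτ x y => by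
    simp only [Equiv.Perm.mul_apply]
    exact (hσ _ _).trans (hτ x y)
  one_mem' := fun _ _ => Iff.rfl
  inv_mem' := fun {σ} hσ x y => by
    have := hσ (σ⁻¹ x) (σ⁻¹ y)
    simpa using this.symm

end Sys

namespace Frame45

variable {Ω : Type*} {S : Sys Ω} {q : Ω} (F : Frame45 S q)

/-- The symmetries fixing the point and some neighbours. -/
def fixA (pre : List ℕ) : Subgroup (Equiv.Perm Ω) where
  carrier := {σ | σ ∈ S.autGroup ∧ σ q = q ∧ ∀ j ∈ pre, σ (F.f (fin45 j)) = F.f (fin45 j)}
  mul_mem' := fun {σ τ} hσ hτ => ⟨mul_mem hσ.1 hτ.1, by rw [Equiv.Perm.mul_apply, hτ.2.1, hσ.2.1],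
    fun j hj => by rw [Equiv.Perm.mul_apply, hτ.2.2 j hj, hσ.2.2 j hj]⟩
  one_mem' := ⟨one_mem _, rfl, fun _ _ => rfl⟩
  inv_mem' := fun {σ} hσ => ⟨inv_mem hσ.1, by rw [Equiv.Perm.inv_eq_iff_eq, hσ.2.1],
    fun j hj => by rw [Equiv.Perm.inv_eq_iff_eq, hσ.2.2 j hj]⟩

theorem fixA_step {pre : List ℕ} (hpre : ∀ j ∈ pre, j < 45) {b n N : ℕ} (hb : b < 45)
    (hn : (cand id pre b).length ≤ n) (hN : Nat.card ↥(F.fixA (pre ++ [b])) ≤ N) :
    Nat.card ↥(F.fixA pre) ≤ n * N := by
  haveI := S.finite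
  have hval : ∀ g : ↥(F.fixA pre), ∃ i : Fin (cand id pre b).length,
      (g : Equiv.Perm Ω) (F.f (fin45 b)) = F.f (fin45 ((cand id pre b).get i)) := by
    intro g
    have h := (g.2.1 q (F.f (fin45 b))).2 (F.adj_f _)
    rw [g.2.2.1] at h
    obtain ⟨c, hc⟩ := (F.nbr _).1 h
    obtain ⟨i, hi⟩ := List.mem_iff_get.1 (F.mem_cand (img := id) g.2.1
      (fun j hj => ⟨hpre j hj, hpre j hj, g.2.2.2 j hj⟩) hb hc.symm)
    exact ⟨i, by rw [hi, fin45_val]; exact hc.symm⟩
  choose v hv using hval
  let rep : Fin (cand id pre b).length → ↥(F.fixA pre) := fun i =>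
    if h : ∃ g, v g = i then h.choose else 1
  have hrep : ∀ g, v (rep (v g)) = v g := fun g => by
    have h : ∃ g', v g' = v g := ⟨g, rfl⟩
    simp only [rep, dif_pos h]
    exact h.choose_spec
  let Φ : ↥(F.fixA pre) → Fin (cand id pre b).length × ↥(F.fixA (pre ++ [b])) := fun g =>
    (v g, ⟨((rep (v g) : ↥(F.fixA pre)) : Equiv.Perm Ω)⁻¹ * g,
      mul_mem (inv_mem (rep (v g)).2.1) g.2.1, by
        rw [Equiv.Perm.mul_apply, g.2.2.1, Equiv.Perm.inv_eq_iff_eq, (rep (v g)).2.2.1], fun j hj => by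
      rw [List.mem_append, List.mem_singleton] at hj
      rw [Equiv.Perm.mul_apply, Equiv.Perm.inv_eq_iff_eq]
      rcases hj with hj | rfl
      · rw [g.2.2.2 j hj, (rep (v g)).2.2.2 j hj]
      · rw [hv g, hv (rep (v g)), hrep]⟩)
  have hΦ : Function.Injective Φ := fun g h e => by
    have e1 := congrArg Prod.fst e
    have e2 := congrArg (fun p => (p.2 : Equiv.Perm Ω)) e
    simp only [Φ] at e1 e2
    rw [e1] at e2
    exact Subtype.ext (mul_left_cancel e2)
  refine (Nat.card_le_card_of_injective Φ hΦ).trans ?_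
  rw [Nat.card_prod, Nat.card_fin]
  exact Nat.mul_le_mul hn hN

theorem card_fixA_le : ∀ (ls : List (ℕ × List (ℕ × List ℕ))) (pre rest : List ℕ),
    candOK ls pre rest = true → (∀ v : Fin 45, (v : ℕ) ∈ pre ++ rest) →
    (∀ v ∈ pre ++ rest, v < 45) →
    Nat.card ↥(F.fixA pre) ≤ (ls.map fun l => l.2.length).prod * 4 := by
  haveI := S.finite
  intro ls
  induction ls with
  | nil =>
    intro pre rest h hall hlt
    simp only [candOK, Bool.and_eq_true, decide_eq_true_eq] at h
    obtain ⟨⟨⟨h10, hc⟩, hrest⟩, hlen⟩ := h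
    have hplt : ∀ j ∈ pre, j < 45 := fun j hj => hlt j (by simp [hj])
    have hrlt : ∀ j ∈ rest, j < 45 := fun j hj => hlt j (by simp [hj])
    have hsub : F.fixA pre ≤ F.fixA (pre ++ rest.take 10) := fun σ hσ => ⟨hσ.1, hσ.2.1, fun j hj =>
      F.forced_spec hσ.1 hσ.2.1 (rest.take 10) pre h10
        (fun j hj => ⟨hrlt j (List.mem_of_mem_take hj), hrlt j (List.mem_of_mem_take hj)⟩)
        (fun j hj => ⟨hplt j hj, hplt j hj, hσ.2.2 j hj⟩) j hj⟩
    have ht : rest.take 11 = rest.take 10 ++ [rest.getD 10 0] := by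
      rw [List.take_succ_eq_append_getElem hlen, List.getD_eq_getElem _ _ hlen]
    have htlt : ∀ j ∈ pre ++ rest.take 11, j < 45 := fun j hj => by
      rcases List.mem_append.1 hj with hj | hj
      exacts [hplt j hj, hrlt j (List.mem_of_mem_take hj)]
    have hlast : Nat.card ↥(F.fixA (pre ++ rest.take 11)) ≤ 2 := by
      have hfix : ∀ σ : ↥(F.fixA (pre ++ rest.take 11)),
          (σ : Equiv.Perm Ω) = 1 ∨ (σ : Equiv.Perm Ω) = S.r q := fun σ =>
        F.fix_near _ σ.2.1 σ.2.2.1 fun a => by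
          have := F.forced_spec σ.2.1 σ.2.2.1 (rest.drop 11) (pre ++ rest.take 11) hrest
            (fun j hj => ⟨hrlt j (List.mem_of_mem_drop hj), hrlt j (List.mem_of_mem_drop hj)⟩)
            (fun j hj => ⟨htlt j hj, htlt j hj, σ.2.2.2 j hj⟩) a
            (by rw [List.append_assoc, List.take_append_drop]; exact hall a)
          rwa [id, fin45_val] at this
      refine (Nat.card_le_card_of_injective (fun σ : ↥(F.fixA (pre ++ rest.take 11)) =>
        decide ((σ : Equiv.Perm Ω) = 1)) fun σ τ e => ?_).trans (by simp)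
      simp only [decide_eq_decide] at e
      refine Subtype.ext ?_
      rcases hfix σ with h1 | h1
      · rw [h1, e.1 h1]
      · rcases hfix τ with h2 | h2
        · rw [h2, e.2 h2]
        · rw [h1, h2]
    refine (Nat.card_le_card_of_injective (Subgroup.inclusion hsub)
      (Subgroup.inclusion_injective _)).trans ?_
    refine le_trans (F.fixA_step (N := 2)
      (fun j hj => htlt j (by rw [ht, ← List.append_assoc]; exact List.mem_append_left _ hj))
      (hrlt _ (List.mem_of_mem_take (ht ▸ by simp : rest.getD 10 0 ∈ rest.take 11))) hc ?_) (by simp)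
    rw [List.append_assoc, ← ht]
    exact hlast
  | cons l more ih =>
    obtain ⟨k, ws⟩ := l
    intro pre rest h hall hlt
    cases rest with
    | nil => simp [candOK] at h
    | cons b rest =>
      simp only [candOK, Bool.and_eq_true, decide_eq_true_eq] at h
      refine (F.fixA_step (fun j hj => hlt j (by simp [hj])) (hlt b (by simp)) h.1
        (ih (pre ++ [b]) rest h.2 (by simpa using hall) (by simpa using hlt))).trans (le_of_eq ?_)
      simp [List.prod_cons, mul_assoc]

end Frame45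

namespace Sys

variable {Ω : Type*} (S : Sys Ω)

include S in
/-- At most 13063680 symmetries. -/
theorem card_autGroup_le : Nat.card ↥S.autGroup ≤ 13063680 := by
  haveI := S.finite
  haveI := Fintype.ofFinite Ω
  obtain ⟨q⟩ : Nonempty Ω := (Nat.card_pos_iff.1 (by rw [S.card]; omega)).1
  obtain ⟨F⟩ := S.frame q
  have h := F.card_fixA_le autWords [] autBase cand_ok.1 (by simpa using autBase_all.2.1)
    (by simpa using autBase_all.1)
  rw [cand_ok.2] at h
  let rep : Ω → ↥S.autGroup := fun x => if h : ∃ g : ↥S.autGroup, (g : Equiv.Perm Ω) q = x then h.choose else 1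
  have hrep : ∀ g : ↥S.autGroup, (rep ((g : Equiv.Perm Ω) q) : Equiv.Perm Ω) q = (g : Equiv.Perm Ω) q :=
    fun g => by
      have h : ∃ g' : ↥S.autGroup, (g' : Equiv.Perm Ω) q = (g : Equiv.Perm Ω) q := ⟨g, rfl⟩
      simp only [rep, dif_pos h]
      exact h.choose_spec
  let Φ : ↥S.autGroup → Ω × ↥(F.fixA []) := fun g => ((g : Equiv.Perm Ω) q,
    ⟨(rep ((g : Equiv.Perm Ω) q) : Equiv.Perm Ω)⁻¹ * g, mul_mem (inv_mem (rep _).2) g.2, by
      rw [Equiv.Perm.mul_apply, Equiv.Perm.inv_eq_iff_eq, hrep], by simp⟩)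
  have hΦ : Function.Injective Φ := fun g k e => by
    have e1 := congrArg Prod.fst e
    have e2 := congrArg (fun p => (p.2 : Equiv.Perm Ω)) e
    simp only [Φ] at e1 e2
    rw [e1] at e2
    exact Subtype.ext (mul_left_cancel e2)
  refine (Nat.card_le_card_of_injective Φ hΦ).trans ?_
  rw [Nat.card_prod, S.card]
  omega

end Sys

end Cfsg.Agent.H32.M24Quad
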