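import Cfsg.Agent.H32.M24Quad.Uniq

/-! The numbering of the 126 points, and the symmetries fixing a point. -/

set_option autoImplicit false

namespace Cfsg.Agent.H32.M24Quad

open scoped Classical

theorem prem_spec {j : ℕ} {s : Bool} {a b : ℕ} (h : prem j s a b = true) :
    a < 126 ∧ b < 126 ∧ 0 < mWhen a b ∧ mWhen a b ≤ j ∧ mAdj a b = s := by
  simpa [prem, and_assoc] using h

theorem hexPrem_spec {j : ℕ} {l : List ℕ} (h : hexPrem j l = true) :
    l.Pairwise (fun a b => prem j true a b = true) := by
  induction l with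
  | nil => exact List.Pairwise.nil
  | cons a l ih =>
    simp only [hexPrem, Bool.and_eq_true, List.all_eq_true] at h
    exact List.pairwise_cons.2 ⟨h.1, ih h.2⟩

namespace Sys

variable {Ω : Type*} (S : Sys Ω)

/-- At most two points far from a given one have the same common neighbours with it. -/
theorem same_two {p x y : Ω} (hx : S.Far p x) (hy : S.Far p y)
    (h : ∀ a, S.adj p a → (S.adj y a ↔ S.adj x a)) : y = x ∨ y = S.r p x := by
  obtain ⟨G⟩ := S.frame p
  obtain ⟨t, ht, hxt⟩ := G.exists_tr hx
  exact G.two ht hxt ⟨hy, fun a => by rw [h _ (G.adj_f a), hxt.2]⟩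

theorem line_pair {x y a b c : Ω} (hab : S.adj a b) (hac : S.adj a c) (hbc : S.adj b c)
    (hxa : S.adj x a) (hxb : S.adj x b) (hxc : S.adj x c) (hya : S.adj y a) (hyb : S.adj y b)
    (hyc : S.adj y c) (hne : x ≠ y) : S.adj x y := by
  obtain ⟨G⟩ := S.frame a
  obtain ⟨b', hb⟩ := (G.nbr b).1 hab
  obtain ⟨c', hc⟩ := (G.nbr c).1 hac
  obtain ⟨x', hx⟩ := (G.nbr x).1 (S.symm hxa)
  obtain ⟨y', hy⟩ := (G.nbr y).1 (S.symm hya)
  subst hb hc hx hy
  rw [G.adj_iff] at hbc hxb hxc hyb hyc ⊢
  exact g_pair hbc hxb hxc hyb hyc (fun e => hne (by rw [e]))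

end Sys

namespace Frame45

variable {Ω : Type*} {S : Sys Ω} {q : Ω} (F : Frame45 S q) {X : ℕ → Ω}

theorem know_of_adj {a b : ℕ} (hm : mAdj a b = true) (h : S.adj (F.pt X a) (F.pt X b)) :
    F.Know X a b := by
  unfold Know; simp [hm, h]

theorem know_of_not {a b : ℕ} (hm : mAdj a b = false) (h : ¬S.adj (F.pt X a) (F.pt X b)) :
    F.Know X a b := by
  unfold Know; simp [hm, h]

theorem know_all (hX : ∀ t < 40, F.HasTr (X t) t)
    (hE : ∀ e ∈ edgeTree, S.adj (X (e.getD 0 0))
      (if e.getD 2 0 = 0 then X (e.getD 1 0) else S.r q (X (e.getD 1 0)))) :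
    ∀ n a b : ℕ, a < 126 → b < 126 → mWhen a b = n → 0 < n → F.Know X a b := by
  intro n
  induction n using Nat.strong_induction_on with
  | h n ih =>
    intro a b ha hb hn hpos
    have hsrc := of_all (of_all src_ok ha) hb
    rw [srcOK, hn, show (n == 0) = false by simp; omega] at hsrc
    simp only [Bool.false_eq_true, if_false] at hsrc
    by_cases h1 : n = 1
    · rw [h1] at hsrc
      exact F.know_base hX hE ha hb (by simpa using hsrc)
    rw [show (n == 1) = false by simp [h1]] at hsrc
    simp only [Bool.false_eq_true, if_false, Bool.and_eq_true, Bool.or_eq_true, beq_iff_eq,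
      decide_eq_true_eq] at hsrc
    obtain ⟨hlt, hsrc⟩ := hsrc
    have hstep := of_all steps_ok hlt
    rw [show n - 2 + 1 = n - 1 by omega] at hstep
    generalize mSteps.getD (n - 2) [] = row at hsrc hstep
    have hprem : ∀ {s : Bool} {u v : ℕ}, prem (n - 1) s u v = true →
        (S.adj (F.pt X u) (F.pt X v) ↔ s = true) := by
      intro s u v h
      obtain ⟨hu, hv, h0, hle, hs⟩ := prem_spec h
      rw [← hs]
      exact ih _ (by omega) u v hu hv rfl h0
    have hne : ∀ {u v : ℕ}, u < 126 → v < 126 → u ≠ v → F.pt X u ≠ F.pt X v :=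
      fun hu hv huv e => huv (congrArg Fin.val (F.pt_inj hX (a₁ := ⟨_, hu⟩) (a₂ := ⟨_, hv⟩) e))
    have hfar : ∀ {v : ℕ}, 46 ≤ v → v < 126 → S.Far q (F.pt X v) :=
      fun h1 h2 => (F.pt_far hX h1 h2).1.1
    have main : row.getD 1 0 < 126 ∧ row.getD 2 0 < 126 ∧
        F.Know X (row.getD 1 0) (row.getD 2 0) := by
      revert hstep
      unfold stepOK
      split
      · next x y a b c =>
        intro h
        simp only [Bool.and_eq_true, decide_eq_true_eq, bne_iff_ne, ne_eq, List.all_cons,
          List.all_nil, Bool.and_true] at h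
        obtain ⟨⟨⟨⟨⟨hx, hy⟩, hxy⟩, hm⟩, hh⟩, ⟨hxa, hya⟩, ⟨hxb, hyb⟩, ⟨hxc, hyc⟩⟩ := h
        refine ⟨hx, hy, F.know_of_adj hm ?_⟩
        have hp := hexPrem_spec hh
        simp only [List.pairwise_cons, List.mem_cons, List.not_mem_nil, or_false, forall_eq_or_imp,
          forall_eq] at hp
        exact S.line_pair ((hprem hp.1.1).2 rfl) ((hprem hp.1.2).2 rfl) ((hprem hp.2.1).2 rfl)
          ((hprem hxa).2 rfl) ((hprem hxb).2 rfl) ((hprem hxc).2 rfl) ((hprem hya).2 rfl)
          ((hprem hyb).2 rfl) ((hprem hyc).2 rfl) (hne hx hy hxy)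
      · next x y =>
        intro h
        simp only [Bool.and_eq_true, decide_eq_true_eq, Bool.not_eq_true'] at h
        obtain ⟨⟨⟨⟨⟨hx, hy⟩, hx'⟩, hy'⟩, hm⟩, hp⟩ := h
        refine ⟨hx', hy', F.know_of_not hm fun hadj => ?_⟩
        have := (hprem hp).2 rfl
        rw [F.pt_r0 hy'] at this
        exact S.not_both (hfar hx hx') (hfar hy hy') hadj this
      · next x y a w =>
        intro h
        simp only [Bool.and_eq_true, decide_eq_true_eq, bne_iff_ne, ne_eq] at h
        obtain ⟨⟨⟨⟨⟨⟨⟨hx, hy⟩, hx'⟩, hy'⟩, hm⟩, hp⟩, htix⟩, hw⟩ := h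
        refine ⟨hx', hy', F.know_of_adj hm ?_⟩
        have := hprem hp
        rw [F.pt_r0 hy'] at this
        exact (F.edge_or (F.pt_far hX hx hx').1 (F.pt_far hX hy hy').1 htix hw).resolve_right
          (fun h' => Bool.noConfusion (this.1 h'))
      · next x y p1 p2 r1 r2 r3 =>
        intro h
        simp only [Bool.and_eq_true, decide_eq_true_eq, Bool.not_eq_true'] at h
        obtain ⟨⟨⟨⟨⟨⟨hx, hy⟩, hm⟩, hh⟩, hnm⟩, hp1⟩, hp2⟩ := h
        refine ⟨hx, hy, F.know_of_not hm ?_⟩
        have hp := hexPrem_spec hh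
        let L : List ℕ := [p1, p2, y, r1, r2, r3]
        let K : Fin 6 → Ω := fun i => F.pt X (L.get i)
        have hK : ∀ i j, i ≠ j → S.adj (K i) (K j) := by
          intro i j hij
          rcases lt_or_gt_of_ne hij with h | h
          · exact (hprem (List.pairwise_iff_get.1 hp i j h)).2 rfl
          · exact S.symm ((hprem (List.pairwise_iff_get.1 hp j i h)).2 rfl)
        have hxK : ∀ i, F.pt X x ≠ K i := by
          have hnm' : x ∉ [y, r1, r2, r3] := fun h' => by
            rw [List.contains_iff_mem.2 h'] at hnm; exact Bool.noConfusion hnm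
          intro i
          refine hne hx ?_ ?_
          · have : ∀ v ∈ L, v < 126 := by
              intro v hv
              simp only [L, List.mem_cons, List.not_mem_nil, or_false] at hv
              simp only [List.pairwise_cons, List.mem_cons, List.not_mem_nil, or_false,
                forall_eq_or_imp, forall_eq] at hp
              obtain ⟨⟨h12, h1y, h14, h15, h16⟩, -⟩ := hp
              rcases hv with rfl | rfl | rfl | rfl | rfl | rfl
              exacts [(prem_spec h12).1, (prem_spec h12).2.1, hy, (prem_spec h14).2.1,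
                (prem_spec h15).2.1, (prem_spec h16).2.1]
            exact this _ (L.get_mem i)
          · intro e
            have hmem : x ∈ L := e ▸ L.get_mem i
            simp only [L, List.mem_cons, List.not_mem_nil, or_false] at hmem hnm'
            rcases hmem with h' | h' | h'
            · have := (prem_spec hp1).2.2.2.2
              rw [← h', show mAdj x x = false from (mAdj_basic ⟨x, hx⟩ ⟨x, hx⟩).1] at this
              exact Bool.noConfusion this
            · have := (prem_spec hp2).2.2.2.2
              rw [← h', show mAdj x x = false from (mAdj_basic ⟨x, hx⟩ ⟨x, hx⟩).1] at this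
              exact Bool.noConfusion this
            · exact hnm' h'
        have h2 := S.hexad hK hxK
        intro hadj
        have : ({0, 1, 2} : Finset (Fin 6)) ⊆
            Finset.univ.filter (fun i => S.adj (F.pt X x) (K i)) := by
          intro i hi
          simp only [Finset.mem_insert, Finset.mem_singleton] at hi
          rw [Finset.mem_filter]
          refine ⟨Finset.mem_univ _, ?_⟩
          rcases hi with rfl | rfl | rfl
          exacts [(hprem hp1).2 rfl, (hprem hp2).2 rfl, hadj]
        have := Finset.card_le_card this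
        rw [h2] at this
        simp at this
      · next x y q1 q2 q3 q4 o =>
        intro h
        simp only [Bool.and_eq_true, decide_eq_true_eq, Bool.not_eq_true', List.all_cons,
          List.all_nil, Bool.and_true] at h
        obtain ⟨⟨⟨⟨⟨hx, hy⟩, hm⟩, hh⟩, hnm⟩, hq1, hq2, hq3, hq4⟩ := h
        refine ⟨hx, hy, F.know_of_adj hm ?_⟩
        have hp := hexPrem_spec hh
        let L : List ℕ := [q1, q2, q3, q4, y, o]
        let K : Fin 6 → Ω := fun i => F.pt X (L.get i)
        have hK : ∀ i j, i ≠ j → S.adj (K i) (K j) := by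
          intro i j hij
          rcases lt_or_gt_of_ne hij with h | h
          · exact (hprem (List.pairwise_iff_get.1 hp i j h)).2 rfl
          · exact S.symm ((hprem (List.pairwise_iff_get.1 hp j i h)).2 rfl)
        have hxK : ∀ i, F.pt X x ≠ K i := by
          have hnm' : x ∉ L := fun h' => by
            rw [List.contains_iff_mem.2 h'] at hnm; exact Bool.noConfusion hnm
          intro i
          refine hne hx ?_ (fun e => hnm' (e ▸ L.get_mem i))
          have : ∀ v ∈ L, v < 126 := by
            intro v hv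
            simp only [L, List.mem_cons, List.not_mem_nil, or_false] at hv
            simp only [List.pairwise_cons, List.mem_cons, List.not_mem_nil, or_false,
              forall_eq_or_imp, forall_eq] at hp
            obtain ⟨⟨h12, h13, h14, h15, h16⟩, -⟩ := hp
            rcases hv with rfl | rfl | rfl | rfl | rfl | rfl
            exacts [(prem_spec h12).1, (prem_spec h12).2.1, (prem_spec h13).2.1,
              (prem_spec h14).2.1, hy, (prem_spec h16).2.1]
          exact this _ (L.get_mem i)
        have h2 := S.hexad hK hxK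
        by_contra hadj
        have hnq : ∀ v, prem (n - 1) false x v = true → ¬S.adj (F.pt X x) (F.pt X v) :=
          fun v h h' => Bool.noConfusion ((hprem h).1 h')
        have : Finset.univ.filter (fun i => S.adj (F.pt X x) (K i)) ⊆ ({5} : Finset (Fin 6)) := by
          intro i hi
          rw [Finset.mem_filter] at hi
          rw [Finset.mem_singleton]
          have hi' := hi.2
          fin_cases i
          exacts [absurd hi' (hnq _ hq1), absurd hi' (hnq _ hq2), absurd hi' (hnq _ hq3),
            absurd hi' (hnq _ hq4), absurd hi' hadj, rfl]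
        have := Finset.card_le_card this
        rw [h2] at this
        simp at this
      · intro h
        exact Bool.noConfusion h
    obtain ⟨hu, hv, hk⟩ := main
    rcases hsrc with ((⟨rfl, rfl⟩ | ⟨rfl, rfl⟩) | ⟨rfl, rfl⟩) | ⟨rfl, rfl⟩
    · exact hk
    · exact F.know_symm hu hv hk
    · exact F.know_r0 hu hv hk
    · exact F.know_symm (r0i_lt hu) (r0i_lt hv) (F.know_r0 hu hv hk)

/-- The numbering. -/
theorem exists_iso : ∃ e : Fin 126 ≃ Ω, e 0 = q ∧
    (∀ a : Fin 45, e ⟨1 + a, by omega⟩ = F.f a) ∧
    (∀ x y, S.adj (e x) (e y) ↔ mAdj x y = true) ∧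
    ∀ p x : Fin 126, S.r (e p) (e x) = e ⟨mOp p x % 126, Nat.mod_lt _ (by omega)⟩ := by
  haveI := S.finite
  haveI := Fintype.ofFinite Ω
  obtain ⟨X, hX, hE⟩ := F.exists_labels
  have hbij : Function.Bijective (fun v : Fin 126 => F.pt X v) := by
    rw [Fintype.bijective_iff_injective_and_card]
    exact ⟨F.pt_inj hX, by rw [Fintype.card_fin, ← Nat.card_eq_fintype_card, S.card]⟩
  let e : Fin 126 ≃ Ω := Equiv.ofBijective _ hbij
  have he : ∀ v, e v = F.pt X v := fun v => rfl
  have hone : ∀ x y : Fin 126, mAdj x y = true → S.adj (e x) (e y) := by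
    intro x y h
    rcases Nat.eq_zero_or_pos (mWhen x y) with h0 | h0
    · have := of_all (of_all src_ok x.isLt) y.isLt
      rw [srcOK, h0] at this
      simp [h] at this
    · exact (F.know_all hX hE _ x y x.isLt y.isLt rfl h0).2 h
  have hadj : ∀ x y, S.adj (e x) (e y) ↔ mAdj x y = true := by
    intro x y
    refine ⟨fun h => ?_, hone x y⟩
    have hsub : (Finset.univ.filter (fun z : Fin 126 => mAdj x z = true)).map e.toEmbedding ⊆
        Finset.univ.filter (fun z => S.adj (e x) z) := by
      intro z hz
      simp only [Finset.mem_map, Finset.mem_filter, Finset.mem_univ, true_and] at hz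
      obtain ⟨w, hw, rfl⟩ := hz
      simp [hone x w hw]
    have hc : (Finset.univ.filter (fun z : Fin 126 => mAdj x z = true)).card = 45 := by
      have h45 := mDeg x
      rw [← List.map_coe_finRange_eq_range, List.countP_map, List.countP_eq_length_filter] at h45
      rw [Finset.card_def, Finset.filter_val, Fin.univ_def, Multiset.filter_coe, Multiset.coe_card,
        ← h45]
      congr 1
      exact List.filter_congr (fun i _ => by simp)
    have heq := Finset.eq_of_subset_of_card_le hsub (by rw [S.card_nbr, Finset.card_map, hc])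
    have : e y ∈ Finset.univ.filter (fun z => S.adj (e x) z) := by simp [h]
    rw [← heq] at this
    simpa using this
  refine ⟨e, by simp [he, pt], fun a => by rw [he]; exact F.pt_near a, hadj, fun p x => ?_⟩
  have hm := of_all mOp_ok p.isLt
  rw [chkMOp] at hm
  have hm := of_all hm x.isLt
  simp only [Bool.and_eq_true, decide_eq_true_eq] at hm
  obtain ⟨hlt, hm⟩ := hm
  have hval : (⟨mOp p x % 126, Nat.mod_lt _ (by omega)⟩ : Fin 126) = ⟨mOp p x, hlt⟩ :=
    Fin.ext (Nat.mod_eq_of_lt hlt)
  rw [hval]
  by_cases hc : x = p ∨ mAdj p x = true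
  · have hc' : ((x : ℕ) == (p : ℕ) || mAdj p x) = true := by rcases hc with h | h <;> simp [h]
    rw [if_pos hc', beq_iff_eq] at hm
    rw [show (⟨mOp p x, hlt⟩ : Fin 126) = x from Fin.ext hm, S.r_fix]
    exact hc.imp (fun h => by rw [h]) (hadj p x).2
  · rw [not_or] at hc
    rw [if_neg (by simp [Fin.val_ne_iff.2 hc.1, hc.2])] at hm
    simp only [Bool.and_eq_true, bne_iff_ne, ne_eq, Bool.not_eq_true', beq_iff_eq] at hm
    obtain ⟨⟨⟨ho1, ho2⟩, ho3⟩, ho4⟩ := hm
    set o : Fin 126 := ⟨mOp p x, hlt⟩ with ho
    have hxf : S.Far (e p) (e x) := ⟨fun h => hc.1 (e.injective h), fun h => hc.2 ((hadj p x).1 h)⟩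
    have hof : S.Far (e p) (e o) :=
      ⟨fun h => ho2 (congrArg Fin.val (e.injective h)),
        fun h => Bool.noConfusion (ho3.symm.trans ((hadj p o).1 h))⟩
    refine ((S.same_two hxf hof fun a ha => ?_).resolve_left
      (fun h => ho1 (congrArg Fin.val (e.injective h)))).symm
    obtain ⟨w, rfl⟩ := e.surjective a
    rw [hadj, hadj]
    have hw : mAdj p w = true := (hadj p w).1 ha
    have hb := congrArg (fun m => m.testBit (w : ℕ)) ho4
    simp only [Nat.testBit_and] at hb
    rw [mAdj] at hw
    rw [hw, Bool.and_true, Bool.and_true] at hb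
    rw [show mAdj o w = mAdj x w from hb]

end Frame45

end Cfsg.Agent.H32.M24Quad
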