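import Cfsg.Agent.H32.M24Quad.Aut

/-! The reflections generate at least 25920 symmetries of the 45 points. -/

set_option autoImplicit false

namespace Cfsg.Agent.H32.M24Quad

open scoped Classical

/-- A reflection of the 45 points. -/
def refl45 (a : Fin 45) : Equiv.Perm (Fin 45) where
  toFun := gopF a
  invFun := gopF a
  left_inv := gop_gop a
  right_inv := gop_gop a

/-- The group they generate. -/
def U45 : Subgroup (Equiv.Perm (Fin 45)) := Subgroup.closure (Set.range refl45)

/-- The certificates for the orbits of the successive stabilizers. -/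
def wordsOK : List (ℕ × List (ℕ × List ℕ)) → List ℕ → List ℕ → Bool
  | [], _, _ => true
  | (_, ws) :: more, pre, b :: rest =>
      decide (b < 45) && decide (ws.map Prod.fst).Nodup &&
      ws.all (fun e => decide (e.1 < 45) && wordAct e.2 e.1 == b &&
        e.2.all (fun a => decide (a < 45)) && pre.all (fun j => wordAct e.2 j == j)) &&
      wordsOK more (pre ++ [b]) rest
  | _ :: _, _, [] => false

set_option maxRecDepth 100000 in
theorem words_ok : wordsOK autWords [] autBase = true ∧
    (autWords.map fun l => l.2.length).prod = 25920 := by decide +kernel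

/-- The elements of the group fixing some points. -/
def fixU (pre : List ℕ) : Subgroup (Equiv.Perm (Fin 45)) where
  carrier := {π | π ∈ U45 ∧ ∀ j ∈ pre, π (fin45 j) = fin45 j}
  mul_mem' := fun {x y} hx hy => ⟨mul_mem hx.1 hy.1, fun j hj => by
    rw [Equiv.Perm.mul_apply, hy.2 j hj, hx.2 j hj]⟩
  one_mem' := ⟨one_mem _, fun _ _ => rfl⟩
  inv_mem' := fun {x} hx => ⟨inv_mem hx.1, fun j hj => by
    rw [Equiv.Perm.inv_eq_iff_eq, hx.2 j hj]⟩

theorem exists_word45 : ∀ w : List ℕ, (∀ a ∈ w, a < 45) →
    ∃ W ∈ U45, ∀ v : Fin 45, W v = fin45 (wordAct w v) := by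
  intro w
  induction w with
  | nil => exact fun _ => ⟨1, one_mem _, fun v => by simp [wordAct, fin45_val]⟩
  | cons a w ih =>
    intro hw
    obtain ⟨W, hW, hWf⟩ := ih (fun b hb => hw b (List.mem_cons_of_mem _ hb))
    refine ⟨W * refl45 ⟨a, hw a (by simp)⟩, mul_mem hW (Subgroup.subset_closure ⟨_, rfl⟩), fun v => ?_⟩
    rw [Equiv.Perm.mul_apply, hWf]
    rfl

theorem card_fixU_ge : ∀ (ls : List (ℕ × List (ℕ × List ℕ))) (pre rest : List ℕ),
    wordsOK ls pre rest = true → (∀ j ∈ pre, j < 45) →
    (ls.map fun l => l.2.length).prod ≤ Nat.card ↥(fixU pre) := by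
  intro ls
  induction ls with
  | nil => intro pre rest _ _; simpa using Nat.succ_le_of_lt (Nat.card_pos (α := ↥(fixU pre)))
  | cons l more ih =>
    obtain ⟨k, ws⟩ := l
    intro pre rest h hpre
    cases rest with
    | nil => simp [wordsOK] at h
    | cons b rest =>
      simp only [wordsOK, Bool.and_eq_true, decide_eq_true_eq, List.all_eq_true, beq_iff_eq] at h
      obtain ⟨⟨⟨hb, hnd⟩, hws⟩, hrest⟩ := h
      have hpre' : ∀ j ∈ pre ++ [b], j < 45 := fun j hj => by
        rw [List.mem_append, List.mem_singleton] at hj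
        rcases hj with hj | rfl
        exacts [hpre j hj, hb]
      refine le_trans (Nat.mul_le_mul_left _ (ih _ _ hrest hpre')) ?_
      have hex : ∀ i : Fin ws.length, ∃ W ∈ fixU pre, W (fin45 (ws.get i).1) = fin45 b := by
        intro i
        obtain ⟨⟨⟨he, hact⟩, hlt⟩, hfix⟩ := hws _ (ws.get_mem i)
        obtain ⟨W, hW, hWf⟩ := exists_word45 _ hlt
        refine ⟨W, ⟨hW, fun j hj => ?_⟩, ?_⟩
        · rw [hWf, fin45_of_lt (hpre j hj), hfix j hj]
        · rw [hWf, fin45_of_lt he, hact]
      choose W hW hWb using hex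
      show ws.length * _ ≤ _
      rw [show ws.length = Nat.card (Fin ws.length) by simp, ← Nat.card_prod]
      refine Nat.card_le_card_of_injective
        (fun p : Fin ws.length × ↥(fixU (pre ++ [b])) => (⟨(W p.1)⁻¹ * p.2,
          mul_mem (inv_mem (hW p.1)) ⟨p.2.2.1, fun j hj => p.2.2.2 j (by simp [hj])⟩⟩ : ↥(fixU pre)))
        ?_
      rintro ⟨i, u⟩ ⟨j, v⟩ h
      have h1 : (W i)⁻¹ * (u : Equiv.Perm (Fin 45)) = (W j)⁻¹ * v := congrArg Subtype.val h
      have hi : ∀ i (u : ↥(fixU (pre ++ [b]))),
          ((W i)⁻¹ * (u : Equiv.Perm (Fin 45))) (fin45 b) = fin45 (ws.get i).1 := fun i u => by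
        rw [Equiv.Perm.mul_apply, u.2.2 b (by simp), Equiv.Perm.inv_eq_iff_eq, hWb]
      have h2 := hi i u
      rw [h1, hi j v] at h2
      have h3 : (ws.get j).1 = (ws.get i).1 := by
        have := congrArg Fin.val h2
        rwa [fin45_of_lt (hws _ (ws.get_mem j)).1.1.1, fin45_of_lt (hws _ (ws.get_mem i)).1.1.1] at this
      obtain rfl : i = j := by
        apply Fin.ext
        refine hnd.getElem_inj_iff.1 (?_ : (ws.map Prod.fst)[(i : ℕ)]'(by simp) =
          (ws.map Prod.fst)[(j : ℕ)]'(by simp))
        simpa using h3.symm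
      exact Prod.ext rfl (Subtype.ext (mul_left_cancel h1))

theorem card_U45_ge : 25920 ≤ Nat.card ↥U45 := by
  rw [← words_ok.2]
  refine (card_fixU_ge autWords [] autBase words_ok.1 (by simp)).trans ?_
  exact Nat.card_le_card_of_injective (Subgroup.inclusion (fun π hπ => hπ.1 : fixU [] ≤ U45))
    (Subgroup.inclusion_injective _)

namespace Frame45

variable {Ω : Type*} {S : Sys Ω} {q : Ω} (F : Frame45 S q)

/-- A group of symmetries fixing a point, containing its neighbours' reflections, induces at
least 25920 symmetries of its neighbourhood. -/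
theorem card_le_kernel {H : Type*} [Group H] [Finite H] (act : H →* Equiv.Perm Ω)
    (hadj : ∀ h x y, S.adj (act h x) (act h y) ↔ S.adj x y) (hq : ∀ h, act h q = q)
    (hr : ∀ a, ∃ h, act h = S.r (F.f a)) (K : Subgroup H)
    (hK : ∀ h, h ∈ K ↔ ∀ a, act h (F.f a) = F.f a) : Nat.card ↥K * 25920 ≤ Nat.card H := by
  have hmem : ∀ h a, act h (F.f a) ∈ Set.range F.f := fun h a => (F.nbr _).1 (by
    have := (hadj h q (F.f a)).2 (F.adj_f a)
    rwa [hq] at this)
  choose g hg using hmem
  have hmul : ∀ h k a, g (h * k) a = g h (g k a) := fun h k a => F.inj (by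
    rw [hg, hg, hg, map_mul, Equiv.Perm.mul_apply])
  have hone : ∀ a, g 1 a = a := fun a => F.inj (by rw [hg, map_one]; rfl)
  let θ : H →* Equiv.Perm (Fin 45) :=
    { toFun := fun h =>
        { toFun := g h
          invFun := g h⁻¹
          left_inv := fun a => by rw [← hmul, inv_mul_cancel, hone]
          right_inv := fun a => by rw [← hmul, mul_inv_cancel, hone] }
      map_one' := Equiv.ext hone
      map_mul' := fun h k => Equiv.ext (hmul h k) }
  have hker : θ.ker = K := by
    ext h
    rw [MonoidHom.mem_ker, hK]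
    constructor
    · intro e a
      rw [← hg]
      exact congrArg F.f (Equiv.ext_iff.1 e a)
    · exact fun e => Equiv.ext fun a => F.inj ((hg h a).trans (e a))
  have hU : U45 ≤ θ.range := by
    refine (Subgroup.closure_le _).2 ?_
    rintro _ ⟨a, rfl⟩
    obtain ⟨h, hh⟩ := hr a
    exact ⟨h, Equiv.ext fun b => F.inj ((hg h b).trans (by rw [hh, F.r_f]; rfl))⟩
  rw [← θ.ker.card_mul_index, hker]
  refine Nat.mul_le_mul_left _ ?_
  rw [← hker, Subgroup.index_ker]
  exact card_U45_ge.trans (Subgroup.card_le_of_le hU)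

end Frame45

end Cfsg.Agent.H32.M24Quad
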