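import Cfsg.Agent.H32.M24Quad.ModelFacts
import Cfsg.Agent.H32.M24Quad.Aut
import Cfsg.Agent.H96.CpQuot.Facts
import Cfsg.Agent.S0303

/-! The simple group of symmetries of the 126 points: the projective orthogonal group of minus type
in dimension six over three elements, which is the unitary group in dimension four over nine. -/

set_option autoImplicit false

namespace Cfsg.Agent.H32.M24Quad

open scoped Classical
open QuadraticMap
open scoped commutatorElement

/-- The quadratic form as a form. -/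
abbrev Q6 : QuadraticForm (ZMod 3) V6 := H5.qMinus 2 (ZMod 3) 0 1

theorem Q6_apply (v : V6) : Q6 v = qf v := congrFun (H5.coe_qMinus 2 (0 : ZMod 3) 1) v

theorem exists_idx (v : V6) (hv : Q6 v = 1) : ∃ p : Fin 126, v = mv p ∨ v = -mv p := by
  rw [Q6_apply, mkV_eta v] at hv
  obtain ⟨p, hp⟩ := mv_cover _ _ _ _ _ _ hv
  exact ⟨p, by rwa [← mkV_eta v] at hp⟩

theorem image_norm (g : H5.orth Q6) (p : Fin 126) :
    Q6 ((g : V6 ≃ₗ[ZMod 3] V6) (mv p)) = 1 := by
  rw [H5.orth_map, Q6_apply, mv_norm]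

/-- The image of a point. -/
noncomputable def idx (g : H5.orth Q6) (p : Fin 126) : Fin 126 :=
  (exists_idx _ (image_norm g p)).choose

theorem idx_spec (g : H5.orth Q6) (p : Fin 126) :
    (g : V6 ≃ₗ[ZMod 3] V6) (mv p) = mv (idx g p) ∨ (g : V6 ≃ₗ[ZMod 3] V6) (mv p) = -mv (idx g p) :=
  (exists_idx _ (image_norm g p)).choose_spec

theorem idx_eq {g : H5.orth Q6} {p x : Fin 126} (h : (g : V6 ≃ₗ[ZMod 3] V6) (mv p) = mv x ∨
    (g : V6 ≃ₗ[ZMod 3] V6) (mv p) = -mv x) : idx g p = x := by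
  apply mv_inj
  rcases idx_spec g p with e | e <;> rcases h with h | h <;> rw [e] at h
  · exact Or.inl h
  · exact Or.inr h
  · exact Or.inr (by rw [← h, neg_neg])
  · exact Or.inl (neg_injective h)

theorem idx_mul (g h : H5.orth Q6) (p : Fin 126) : idx (g * h) p = idx g (idx h p) := by
  refine idx_eq ?_
  rw [H5.orth_mul_apply]
  rcases idx_spec h p with e | e <;> rw [e] <;> rcases idx_spec g (idx h p) with e' | e'
  · exact Or.inl e'
  · exact Or.inr e'
  · exact Or.inr (by rw [map_neg, e'])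
  · exact Or.inl (by rw [map_neg, e', neg_neg])

theorem idx_one (p : Fin 126) : idx 1 p = p := idx_eq (Or.inl rfl)

/-- The action on the points. -/
noncomputable def rho : H5.orth Q6 →* Equiv.Perm (Fin 126) where
  toFun g :=
    { toFun := idx g
      invFun := idx g⁻¹
      left_inv := fun p => by rw [← idx_mul, inv_mul_cancel, idx_one]
      right_inv := fun p => by rw [← idx_mul, mul_inv_cancel, idx_one] }
  map_one' := Equiv.ext idx_one
  map_mul' g h := Equiv.ext (idx_mul g h)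

/-- The third point in the model. -/
def mOpF (p x : Fin 126) : Fin 126 := ⟨mOp p x % 126, Nat.mod_lt _ (by omega)⟩

theorem mOp_lt (p x : Fin 126) : mOp p x < 126 := by
  have h := of_all mOp_ok p.isLt
  rw [chkMOp] at h
  have h := of_all h x.isLt
  simp only [Bool.and_eq_true, decide_eq_true_eq] at h
  exact h.1

theorem rho_refl (p x : Fin 126) : rho (H5.refl Q6 (mv p)) x = mOpF p x := by
  have hv : (mOpF p x : ℕ) = mOp p x := Nat.mod_eq_of_lt (mOp_lt p x)
  refine idx_eq ?_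
  rw [H5.refl_apply, Q6_apply, mv_norm, inv_one, one_mul, hv,
    show polar (⇑Q6) (mv p) (mv x) = qf (mv p + mv x) - qf (mv p) - qf (mv x) by
      simp only [polar, Q6_apply]]
  exact mv_refl p x

theorem rho_apply (g : H5.orth Q6) (p : Fin 126) : rho g p = idx g p := rfl

theorem rho_conj (g : H5.orth Q6) (p : Fin 126) :
    rho g * rho (H5.refl Q6 (mv p)) * (rho g)⁻¹ = rho (H5.refl Q6 (mv (rho g p))) := by
  rw [← map_inv, ← map_mul, ← map_mul, H5.refl_conj, rho_apply]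
  rcases idx_spec g p with e | e <;> rw [e]
  rw [← neg_one_smul (ZMod 3) (mv (idx g p)), H5.refl_smul (t := (-1 : ZMod 3)) (by decide)]

/-- The image of the derived group. -/
noncomputable def Ubar : Subgroup (Equiv.Perm (Fin 126)) := (commutator (H5.orth Q6)).map rho

theorem com_mem (a b : Fin 126) : ∃ u ∈ Ubar, ∀ x : Fin 126, ((u x : Fin 126) : ℕ) = mCom a b x := by
  refine ⟨rho ⁅H5.refl Q6 (mv a), H5.refl Q6 (mv b)⁆, Subgroup.mem_map_of_mem _
    (Subgroup.commutator_mem_commutator (Subgroup.mem_top _) (Subgroup.mem_top _)), fun x => ?_⟩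
  have hstep : ∀ p x : Fin 126, ((rho (H5.refl Q6 (mv p)) x : Fin 126) : ℕ) = mOp p x :=
    fun p x => by rw [rho_refl]; exact Nat.mod_eq_of_lt (mOp_lt p x)
  simp only [commutatorElement_def, H5.refl_inv, map_mul, Equiv.Perm.mul_apply, hstep, mCom]

theorem com_witness {l : List ℕ} (h : l.all (fun v => decide (v < 126)) = true) (k : ℕ) :
    l.getD k 0 < 126 := by
  rw [List.all_eq_true] at h
  rcases Nat.lt_or_ge k l.length with hk | hk
  · rw [List.getD_eq_getElem _ _ hk]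
    simpa using h _ (List.getElem_mem hk)
  · rw [List.getD_eq_default _ _ hk]; omega

/-- Nothing but the identity commutes with all of it. -/
theorem centralizer_Ubar {c : Equiv.Perm (Fin 126)} (hc : ∀ u ∈ Ubar, c * u = u * c) : c = 1 := by
  have hcomm : ∀ u ∈ Ubar, ∀ x, c (u x) = u (c x) := fun u hu x => Equiv.ext_iff.1 (hc u hu) x
  have h0 : c 0 = 0 := by
    by_contra hne
    obtain ⟨hlt, hfix, hmv⟩ := mMove_ok (c 0)
    obtain ⟨u, hu, hu'⟩ := com_mem ⟨_, com_witness hlt 0⟩ ⟨_, com_witness hlt 1⟩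
    rcases hmv with hmv | hmv
    · exact hne (Fin.ext hmv)
    · refine hmv ?_
      have h1 : u 0 = 0 := Fin.ext ((hu' 0).trans hfix)
      have h2 := hcomm u hu 0
      rw [h1] at h2
      have h3 := hu' (c 0)
      rw [← h2] at h3
      exact h3.symm
  ext x : 1
  obtain ⟨hlt, hx⟩ := mOrbit_ok x
  obtain ⟨u, hu, hu'⟩ := com_mem ⟨_, com_witness hlt 0⟩ ⟨_, com_witness hlt 1⟩
  obtain ⟨v, hv, hv'⟩ := com_mem ⟨_, com_witness hlt 2⟩ ⟨_, com_witness hlt 3⟩
  have e : v (u 0) = x := Fin.ext (by rw [hv', hu']; exact hx)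
  rw [Equiv.Perm.one_apply, ← e, hcomm v hv, hcomm u hu, h0]

theorem Ubar_ne_bot : Ubar ≠ ⊥ := fun h => by
  have h1 : ∀ c : Equiv.Perm (Fin 126), c = 1 := fun c => centralizer_Ubar (fun u hu => by
    rw [h, Subgroup.mem_bot] at hu; simp [hu])
  have := Equiv.ext_iff.1 (h1 (Equiv.swap 0 1)) 0
  simp at this

theorem anisotropic_three : ∀ z₁ z₂ : ZMod 3,
    z₁ ^ 2 + 0 * z₁ * z₂ + 1 * z₂ ^ 2 = 0 → z₁ = 0 ∧ z₂ = 0 := by decide

/-- The group is the projective unitary group. -/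
theorem exists_equiv_psu : ∃ (K : Type) (_ : Field K) (_ : Fintype K), Fintype.card K = 9 ∧
    Nonempty (↥Ubar ≃* Cfsg.PSU 4 K 3) := by
  haveI : Fact (Nat.Prime 3) := ⟨Nat.prime_three⟩
  let K := GaloisField 3 2
  haveI : Fintype K := Fintype.ofFinite K
  have hK : Fintype.card K = 9 := by
    rw [← Nat.card_eq_fintype_card, GaloisField.card 3 2 (by norm_num)]; norm_num
  refine ⟨K, inferInstance, inferInstance, hK, ?_⟩
  obtain ⟨e⟩ := S0303.result (q := 3) (ZMod.card 3) (by rw [hK]; norm_num : Fintype.card K = 3 ^ 2)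
    (0 : ZMod 3) 1 anisotropic_three
  haveI := H3.isSimpleGroup_PSU (n := 4) (by rw [hK]; norm_num : Fintype.card K = 3 ^ 2)
    (by norm_num) (by norm_num)
  haveI : Nontrivial (Cfsg.POmega (ZMod 3) qf) := e.toEquiv.nontrivial
  haveI : IsSimpleGroup (Cfsg.POmega (ZMod 3) qf) := IsSimpleGroup.isSimpleGroup_of_surjective
    (H := Cfsg.POmega (ZMod 3) qf) e.symm.toMonoidHom e.symm.surjective
  let f : ↥(Cfsg.Omega (ZMod 3) qf) →* Equiv.Perm (Fin 126) :=
    (rho.comp (H5.isoEquiv Q6 (H5.coe_qMinus 2 0 1)).toMonoidHom).comp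
      (Cfsg.Omega (ZMod 3) qf).subtype
  have hrange : f.range = Ubar := by
    rw [Ubar]
    ext u
    constructor
    · rintro ⟨g, rfl⟩
      exact ⟨_, (H5.mem_Omega_iff Q6 (H5.coe_qMinus 2 0 1) g.1).1 g.2, rfl⟩
    · rintro ⟨h, hh, rfl⟩
      obtain ⟨g, rfl⟩ := (H5.isoEquiv Q6 (H5.coe_qMinus 2 (0 : ZMod 3) 1)).surjective h
      exact ⟨⟨g, (H5.mem_Omega_iff Q6 (H5.coe_qMinus 2 0 1) g).2 hh⟩, rfl⟩
  have hZ : Subgroup.center ↥(Cfsg.Omega (ZMod 3) qf) ≤ f.ker := fun z hz => by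
    rw [MonoidHom.mem_ker]
    refine centralizer_Ubar fun u hu => ?_
    rw [← hrange] at hu
    obtain ⟨g, rfl⟩ := hu
    rw [← map_mul, ← map_mul, Subgroup.mem_center_iff.1 hz g]
  have hker : f.ker = Subgroup.center ↥(Cfsg.Omega (ZMod 3) qf) := by
    refine le_antisymm ?_ hZ
    have hn : (f.ker.map (QuotientGroup.mk' (Subgroup.center ↥(Cfsg.Omega (ZMod 3) qf)))).Normal :=
      Subgroup.Normal.map inferInstance _ (QuotientGroup.mk'_surjective _)
    rcases hn.eq_bot_or_eq_top with h | h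
    · rw [Subgroup.map_eq_bot_iff, QuotientGroup.ker_mk'] at h
      exact h
    · exfalso
      refine Ubar_ne_bot ?_
      rw [← hrange, MonoidHom.range_eq_bot_iff, ← MonoidHom.ker_eq_top_iff]
      have := congrArg (Subgroup.comap (QuotientGroup.mk' (Subgroup.center ↥(Cfsg.Omega (ZMod 3) qf)))) h
      rwa [Subgroup.comap_map_eq, QuotientGroup.ker_mk', sup_eq_left.2 hZ, Subgroup.comap_top] at this
  exact ⟨(MulEquiv.subgroupCongr hrange).symm.trans
    ((QuotientGroup.quotientKerEquivRange f).symm.trans ((QuotientGroup.quotientMulEquivOfEq hker).trans e))⟩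

theorem card_Ubar : Nat.card ↥Ubar = 3265920 := by
  obtain ⟨K, iK, iF, hK, ⟨e⟩⟩ := exists_equiv_psu
  rw [Nat.card_congr e.toEquiv, H96.CpQuot.card_psu_four_three hK]

theorem isSimple_Ubar : IsSimpleGroup ↥Ubar := by
  obtain ⟨K, iK, iF, hK, ⟨e⟩⟩ := exists_equiv_psu
  haveI := H3.isSimpleGroup_PSU (n := 4) (by rw [hK]; norm_num : Fintype.card K = 3 ^ 2)
    (by norm_num) (by norm_num)
  haveI : Nontrivial ↥Ubar := e.toEquiv.nontrivial
  exact IsSimpleGroup.isSimpleGroup_of_surjective (H := ↥Ubar) e.symm.toMonoidHom e.symm.surjective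

/-- Every set of permutations generated by products of two reflections contains it. -/
theorem Ubar_le {T : Subgroup (Equiv.Perm (Fin 126))}
    (hT : ∀ p q : Fin 126, rho (H5.refl Q6 (mv p)) * rho (H5.refl Q6 (mv q)) ∈ T) : Ubar ≤ T := by
  obtain ⟨R, hR⟩ : ∃ R : Subgroup (Equiv.Perm (Fin 126)), R = Subgroup.closure
      {g | ∃ p q : Fin 126, rho (H5.refl Q6 (mv p)) * rho (H5.refl Q6 (mv q)) = g} := ⟨_, rfl⟩
  have hRT : R ≤ T := hR ▸ (Subgroup.closure_le _).2 (by rintro _ ⟨p, q, rfl⟩; exact hT p q)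
  refine le_trans ?_ hRT
  have hnorm : ∀ g : H5.orth Q6, ∀ x ∈ R, rho g * x * (rho g)⁻¹ ∈ R := fun g x hx => by
    rw [hR] at hx ⊢
    induction hx using Subgroup.closure_induction with
    | mem x hx =>
      obtain ⟨p, q, rfl⟩ := hx
      refine Subgroup.subset_closure ⟨rho g p, rho g q, ?_⟩
      rw [← rho_conj, ← rho_conj]; group
    | one => simp
    | mul x y _ _ hx hy =>
      rw [show rho g * (x * y) * (rho g)⁻¹ = (rho g * x * (rho g)⁻¹) * (rho g * y * (rho g)⁻¹) by group]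
      exact mul_mem hx hy
    | inv x _ hx =>
      rw [show rho g * x⁻¹ * (rho g)⁻¹ = (rho g * x * (rho g)⁻¹)⁻¹ by group]
      exact inv_mem hx
  haveI hn : (R.subgroupOf Ubar).Normal := ⟨fun x hx u => by
    obtain ⟨g, -, hg⟩ := u.2
    rw [Subgroup.mem_subgroupOf] at hx ⊢
    push_cast
    rw [← hg]
    exact hnorm g _ hx⟩
  haveI := isSimple_Ubar
  rcases hn.eq_bot_or_eq_top with h | h
  swap
  · exact Subgroup.subgroupOf_eq_top.1 h
  exfalso
  rw [Subgroup.subgroupOf_eq_bot, disjoint_iff] at h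
  obtain ⟨x, hx, hne⟩ : ∃ x ∈ R, x ≠ 1 := by
    obtain ⟨x, hx⟩ : ∃ x : Fin 126, mOpF 1 (mOpF 0 x) ≠ x := by
      by_contra hall
      push Not at hall
      exact absurd (hall 46) (by decide +kernel)
    refine ⟨rho (H5.refl Q6 (mv (1 : Fin 126))) * rho (H5.refl Q6 (mv (0 : Fin 126))),
      by rw [hR]; exact Subgroup.subset_closure ⟨1, 0, rfl⟩, fun e => hx ?_⟩
    have := Equiv.ext_iff.1 e x
    rwa [Equiv.Perm.mul_apply, rho_refl, rho_refl, Equiv.Perm.one_apply] at this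
  refine hne (centralizer_Ubar fun u hu => ?_)
  obtain ⟨g, hg, rfl⟩ := hu
  have hU : Ubar.Normal → True := fun _ => trivial
  have h1 : x * rho g * x⁻¹ * (rho g)⁻¹ ∈ R := by
    rw [show x * rho g * x⁻¹ * (rho g)⁻¹ = x * (rho g * x⁻¹ * (rho g)⁻¹) by group]
    exact mul_mem hx (hnorm g _ (inv_mem hx))
  have h2 : x * rho g * x⁻¹ * (rho g)⁻¹ ∈ Ubar := by
    refine mul_mem ?_ (inv_mem ⟨g, hg, rfl⟩)
    have hxr : ∀ x ∈ R, ∀ u ∈ Ubar, x * u * x⁻¹ ∈ Ubar := by
      have hle : R ≤ rho.range := hR ▸ (Subgroup.closure_le _).2 (by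
        rintro _ ⟨p, q, rfl⟩; exact ⟨_, map_mul rho _ _⟩)
      intro x hx u hu
      obtain ⟨k, rfl⟩ := hle hx
      obtain ⟨m, hm, rfl⟩ := hu
      exact ⟨k * m * k⁻¹, Subgroup.Normal.conj_mem inferInstance m hm k, by simp⟩
    exact hxr x hx _ ⟨g, hg, rfl⟩
  have h3 : x * rho g * x⁻¹ * (rho g)⁻¹ = 1 := by
    have : x * rho g * x⁻¹ * (rho g)⁻¹ ∈ R ⊓ Ubar := ⟨h1, h2⟩
    rwa [h, Subgroup.mem_bot] at this
  rwa [mul_inv_eq_one, mul_inv_eq_iff_eq_mul] at h3

end Cfsg.Agent.H32.M24Quad
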