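import Cfsg.Agent.H32.M24Quad.Tables
import Cfsg.Agent.H32.M24Quad.ModelData
import Cfsg.Prelude.Def_Classical

/-! Decidable facts about the orthogonal model of the 126 points. -/

set_option autoImplicit false

namespace Cfsg.Agent.H32.M24Quad

/-- The orthogonal space. -/
abbrev V6 : Type := (Fin 2 ⊕ Fin 2) ⊕ Fin 2 → ZMod 3

/-- The quadratic form. -/
abbrev qf : V6 → ZMod 3 := Cfsg.quadFormMinus 2 (ZMod 3) 0 1

/-- A vector from its six coordinates. -/
def mkV (a b c d e f : ZMod 3) : V6 := Sum.elim (Sum.elim ![a, b] ![c, d]) ![e, f]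

/-- The vector of a point. -/
def mv (p : ℕ) : V6 :=
  let l := mVecs.getD p []
  mkV (l.getD 0 0 : ℕ) (l.getD 1 0 : ℕ) (l.getD 2 0 : ℕ) (l.getD 3 0 : ℕ) (l.getD 4 0 : ℕ)
    (l.getD 5 0 : ℕ)

theorem mkV_eta (v : V6) :
    v = mkV (v (.inl (.inl 0))) (v (.inl (.inl 1))) (v (.inl (.inr 0))) (v (.inl (.inr 1)))
      (v (.inr 0)) (v (.inr 1)) := by
  funext i
  rcases i with (i | i) | i <;> fin_cases i <;> rfl

set_option maxRecDepth 100000 in
theorem mv_norm : ∀ p : Fin 126, qf (mv p) = 1 := by decide +kernel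

set_option maxRecDepth 100000 in
theorem mv_cover : ∀ a b c d e f : ZMod 3, qf (mkV a b c d e f) = 1 →
    ∃ p : Fin 126, mkV a b c d e f = mv p ∨ mkV a b c d e f = -mv p := by decide +kernel

set_option maxRecDepth 100000 in
theorem mv_refl : ∀ p x : Fin 126,
    (let w := mv x - (qf (mv p + mv x) - qf (mv p) - qf (mv x)) • mv p
     w = mv (mOp p x) ∨ w = -mv (mOp p x)) := by decide +kernel

set_option maxRecDepth 100000 in
theorem mv_inj : ∀ p x : Fin 126, mv p = mv x ∨ mv p = -mv x → p = x := by decide +kernel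

/-- A commutator of two reflections on a point. -/
def mCom (a b x : ℕ) : ℕ := mOp a (mOp b (mOp a (mOp b x)))

set_option maxRecDepth 100000 in
theorem mOrbit_ok : ∀ x : Fin 126, ((mOrbit.getD x []).all fun v => decide (v < 126)) = true ∧
    mCom ((mOrbit.getD x []).getD 2 0) ((mOrbit.getD x []).getD 3 0)
      (mCom ((mOrbit.getD x []).getD 0 0) ((mOrbit.getD x []).getD 1 0) 0) = x := by
  decide +kernel

set_option maxRecDepth 100000 in
theorem mMove_ok : ∀ x : Fin 126, ((mMove.getD x []).all fun v => decide (v < 126)) = true ∧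
    mCom ((mMove.getD x []).getD 0 0) ((mMove.getD x []).getD 1 0) 0 = 0 ∧
    ((x : ℕ) = 0 ∨ mCom ((mMove.getD x []).getD 0 0) ((mMove.getD x []).getD 1 0) x ≠ x) := by
  decide +kernel

/-- Two opposite points. -/
def mFar (a b : ℕ) : Bool := a != b && !(mAdj a b)

set_option maxRecDepth 100000 in
theorem mSix_ok : ∀ i j : Fin 6, mFar (mSix.getD i 0) (mSix.getD j 0) =
    ((i : ℕ) + 3 == j || (j : ℕ) + 3 == i) ∧ mSix.getD i 0 < 126 := by decide +kernel

end Cfsg.Agent.H32.M24Quad
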